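import Mathlib
import Cfsg.Agent.Lib.Classical.Orth.Models
import Cfsg.Agent.Lib.ChevIso.OmegaPlus

/-!
# The Clifford algebra of `Σ xᵢ yᵢ`
-/

set_option autoImplicit false
set_option linter.unusedSectionVars false
set_option linter.unusedSimpArgs false

namespace Cfsg.Agent.Lib.SpinD

open Cfsg.Agent.Lib.ChevIso
open Cfsg.Agent.Lib.Classical.Orth

variable {n : ℕ} {F : Type*} [Field F]

/-- The Clifford algebra. -/
abbrev Cl (n : ℕ) (F : Type*) [Field F] := CliffordAlgebra (Models.plusForm n F)

/-- The vectors in the Clifford algebra. -/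
noncomputable def vi (w : OmegaPlus.Ip n → F) : Cl n F := CliffordAlgebra.ι (Models.plusForm n F) w

theorem vi_add (w z : OmegaPlus.Ip n → F) : vi (w + z) = vi w + vi z := map_add _ _ _

theorem vi_sub (w z : OmegaPlus.Ip n → F) : vi (w - z) = vi w - vi z := map_sub _ _ _

theorem vi_smul (c : F) (w : OmegaPlus.Ip n → F) : vi (c • w) = c • vi w := map_smul _ _ _

theorem vi_sq (w : OmegaPlus.Ip n → F) : vi w * vi w = algebraMap F _ (Cfsg.quadFormPlus n F w) := by
  rw [vi, CliffordAlgebra.ι_sq_scalar, Models.coe_plusForm_apply]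

theorem polar_plus_eq (w z : OmegaPlus.Ip n → F) : QuadraticMap.polar (Models.plusForm n F) w z = OmegaPlus.polarF w z := by
  rw [QuadraticMap.polar, Models.coe_plusForm_apply, Models.coe_plusForm_apply, Models.coe_plusForm_apply,
    OmegaPlus.Q_add]
  ring

theorem vi_anti (w z : OmegaPlus.Ip n → F) : vi w * vi z + vi z * vi w = algebraMap F _ (OmegaPlus.polarF w z) := by
  rw [vi, vi, CliffordAlgebra.ι_mul_ι_add_swap, polar_plus_eq]

section Finite

variable [Fintype F]

theorem finite_exterior : Module.Finite F (ExteriorAlgebra F (OmegaPlus.Ip n → F)) := by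
  set V := OmegaPlus.Ip n → F
  set N := Module.finrank F V with hN
  have h0 : ∀ i, N < i → ⋀[F]^i V = ⊥ := by
    intro i hi
    have h1 : Module.finrank F (⋀[F]^i V) = 0 := by
      rw [exteriorPower.finrank_eq, ← hN, Nat.choose_eq_zero_of_lt hi]
    exact Submodule.finrank_eq_zero.mp h1
  have h2 : (⨆ i, ⋀[F]^i V) = ⊤ :=
    (DirectSum.Decomposition.isInternal (fun i : ℕ => ⋀[F]^i V)).submodule_iSup_eq_top
  have h3 : (⊤ : Submodule F (ExteriorAlgebra F V)) = ⨆ i ∈ Finset.range (N + 1), ⋀[F]^i V := by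
    rw [← h2]
    apply le_antisymm
    · refine iSup_le fun i => ?_
      by_cases hi : i ∈ Finset.range (N + 1)
      · exact le_iSup₂_of_le i hi le_rfl
      · rw [h0 i (by simpa [Nat.lt_succ_iff] using hi)]
        exact bot_le
    · exact iSup₂_le fun i _ => le_iSup _ i
  rw [Module.finite_def, h3]
  exact Submodule.fg_biSup _ _ fun i _ => by
    have := (inferInstance : Module.Finite F (⋀[F]^i V))
    exact Module.Finite.iff_fg.mp this

theorem finite_cl (h2 : (2 : F) ≠ 0) : Finite (Cl n F) := by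
  haveI := invertibleOfNonzero h2
  haveI := finite_exterior (n := n) (F := F)
  haveI : Module.Finite F (Cl n F) := Module.Finite.equiv (CliffordAlgebra.equivExterior (Models.plusForm n F)).symm
  exact Module.finite_of_finite F

theorem nontrivial_cl (h2 : (2 : F) ≠ 0) : Nontrivial (Cl n F) := by
  haveI := invertibleOfNonzero h2
  infer_instance

end Finite

/-- The basis vectors. -/
noncomputable def gn (u : OmegaPlus.Ip n) : Cl n F := vi (OmegaPlus.e u)

theorem gn_sq (u : OmegaPlus.Ip n) : (gn u : Cl n F) * gn u = 0 := by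
  rw [gn, vi_sq, OmegaPlus.Q_e, map_zero]

theorem gn_anti {u v : OmegaPlus.Ip n} (h : v ≠ u.swap) : (gn u : Cl n F) * gn v = - (gn v * gn u) := by
  have h1 := vi_anti (OmegaPlus.e u : OmegaPlus.Ip n → F) (OmegaPlus.e v)
  rw [OmegaPlus.polarF_e, OmegaPlus.e_apply, if_neg, map_zero] at h1
  · exact eq_neg_of_add_eq_zero_left h1
  · intro h2
    apply h
    rw [← h2, Sum.swap_swap]

theorem gn_swap (u : OmegaPlus.Ip n) : (gn u : Cl n F) * gn u.swap + gn u.swap * gn u = 1 := by
  have h1 := vi_anti (OmegaPlus.e u : OmegaPlus.Ip n → F) (OmegaPlus.e u.swap)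
  rw [OmegaPlus.polarF_e, OmegaPlus.e_apply, if_pos (Sum.swap_swap u), map_one] at h1
  exact h1

end Cfsg.Agent.Lib.SpinD
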