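import Mathlib
import Cfsg.Agent.Lib.SpinD.Cliff

/-!
# Identities in the Clifford algebra of `Σ xᵢ yᵢ`
-/

set_option autoImplicit false
set_option linter.unusedSectionVars false
set_option linter.unusedSimpArgs false

namespace Cfsg.Agent.Lib.SpinD

open Cfsg.Agent.Lib.ChevIso

section Ring

variable {F R : Type*} [Field F] [Ring R] [Algebra F R]

/-- The group commutator of two square zero elements. -/
theorem comm_id {X Y : R} (s t : F) (hX : X * X = 0) (hY : Y * Y = 0) (h1 : X * Y * X = 0) (h2 : Y * X * Y = 0) :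
    (1 + s • X) * (1 + t • Y) * (1 + (-s) • X) * (1 + (-t) • Y) = 1 + (s * t) • (X * Y - Y * X) := by
  have hX' : ∀ z : R, X * (X * z) = 0 := fun z => by rw [← mul_assoc, hX, zero_mul]
  have hY' : ∀ z : R, Y * (Y * z) = 0 := fun z => by rw [← mul_assoc, hY, zero_mul]
  have h1' : X * (Y * X) = 0 := by rw [← mul_assoc, h1]
  have h2' : Y * (X * Y) = 0 := by rw [← mul_assoc, h2]
  have h1'' : ∀ z : R, X * (Y * (X * z)) = 0 := fun z => by
    rw [← mul_assoc Y, ← mul_assoc X, h1', zero_mul]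
  have h2'' : ∀ z : R, Y * (X * (Y * z)) = 0 := fun z => by
    rw [← mul_assoc X, ← mul_assoc Y, h2', zero_mul]
  simp only [mul_assoc, mul_add, add_mul, one_mul, mul_one, smul_mul_assoc, mul_smul_comm, smul_add, smul_smul,
    hX, hY, hX', hY', h1', h2', h1'', h2'', smul_zero, add_zero, zero_add]
  simp only [mul_sub, smul_sub, neg_smul, mul_neg, neg_mul, mul_zero, smul_zero, add_zero, neg_zero]
  have e1 : t * s = s * t := mul_comm _ _
  simp only [e1]
  abel

/-- The lift of a Weyl element. -/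
theorem w_sq {X Y : R} (hX : X * X = 0) (hY : Y * Y = 0) (h1 : X * Y * X = X) (h2 : Y * X * Y = Y) :
    ((1 + X) * (1 - Y) * (1 + X)) * ((1 + X) * (1 - Y) * (1 + X)) = 1 - 2 * (X * Y + Y * X) := by
  have hX' : ∀ z : R, X * (X * z) = 0 := fun z => by rw [← mul_assoc, hX, zero_mul]
  have hY' : ∀ z : R, Y * (Y * z) = 0 := fun z => by rw [← mul_assoc, hY, zero_mul]
  have h1' : X * (Y * X) = X := by rw [← mul_assoc, h1]
  have h2' : Y * (X * Y) = Y := by rw [← mul_assoc, h2]
  have h1'' : ∀ z : R, X * (Y * (X * z)) = X * z := fun z => by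
    rw [← mul_assoc Y, ← mul_assoc X, h1']
  have h2'' : ∀ z : R, Y * (X * (Y * z)) = Y * z := fun z => by
    rw [← mul_assoc X, ← mul_assoc Y, h2']
  have e : (1 + X) * (1 - Y) * (1 + X) = 1 - X * Y - Y * X + X - Y := by
    simp only [mul_assoc, mul_add, add_mul, mul_sub, sub_mul, one_mul, mul_one, hX, hX', h1', add_zero]
    abel
  rw [e]
  simp only [mul_assoc, mul_add, add_mul, mul_sub, sub_mul, one_mul, mul_one, hX, hY, hX', hY', h1', h2', h1'', h2'',
    add_zero, sub_zero, zero_add, zero_sub, mul_zero, two_mul]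
  abel

/-- Four generators of a Clifford algebra of two hyperbolic planes. -/
structure Cl4 (a a' b b' : R) : Prop where
  aa : a * a = 0
  aa2 : a' * a' = 0
  bb : b * b = 0
  bb2 : b' * b' = 0
  h1 : a * a' + a' * a = 1
  h2 : b * b' + b' * b = 1
  c1 : a * b = - (b * a)
  c2 : a * b' = - (b' * a)
  c3 : a' * b = - (b * a')
  c4 : a' * b' = - (b' * a')

namespace Cl4

variable {a a' b b' : R}

theorem flip (h : Cl4 a a' b b') : Cl4 a' a b b' :=
  ⟨h.aa2, h.aa, h.bb, h.bb2, by rw [add_comm]; exact h.h1, h.h2, h.c3, h.c4, h.c1, h.c2⟩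

/-- The relations of a Weyl element. -/
theorem rels (h : Cl4 a a' b b') : (a * b') * (a * b') = 0 ∧ (b * a') * (b * a') = 0 ∧
    (a * b') * (b * a') * (a * b') = a * b' ∧ (b * a') * (a * b') * (b * a') = b * a' := by
  have r1 : ∀ z : R, a * (a * z) = 0 := fun z => by rw [← mul_assoc, h.aa, zero_mul]
  have r2 : ∀ z : R, a' * (a' * z) = 0 := fun z => by rw [← mul_assoc, h.aa2, zero_mul]
  have r3 : ∀ z : R, b * (b * z) = 0 := fun z => by rw [← mul_assoc, h.bb, zero_mul]
  have r4 : ∀ z : R, b' * (b' * z) = 0 := fun z => by rw [← mul_assoc, h.bb2, zero_mul]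
  have s1 : a' * a = 1 - a * a' := eq_sub_of_add_eq' h.h1
  have s2 : b' * b = 1 - b * b' := eq_sub_of_add_eq' h.h2
  have s1' : ∀ z : R, a' * (a * z) = z - a * (a' * z) := fun z => by
    rw [← mul_assoc, s1, sub_mul, one_mul, mul_assoc]
  have s2' : ∀ z : R, b' * (b * z) = z - b * (b' * z) := fun z => by
    rw [← mul_assoc, s2, sub_mul, one_mul, mul_assoc]
  have t1 : b * a = - (a * b) := by rw [h.c1, neg_neg]
  have t2 : b' * a = - (a * b') := by rw [h.c2, neg_neg]
  have t3 : b * a' = - (a' * b) := by rw [h.c3, neg_neg]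
  have t4 : b' * a' = - (a' * b') := by rw [h.c4, neg_neg]
  have t1' : ∀ z : R, b * (a * z) = - (a * (b * z)) := fun z => by
    rw [← mul_assoc, t1, neg_mul, mul_assoc]
  have t2' : ∀ z : R, b' * (a * z) = - (a * (b' * z)) := fun z => by
    rw [← mul_assoc, t2, neg_mul, mul_assoc]
  have t3' : ∀ z : R, b * (a' * z) = - (a' * (b * z)) := fun z => by
    rw [← mul_assoc, t3, neg_mul, mul_assoc]
  have t4' : ∀ z : R, b' * (a' * z) = - (a' * (b' * z)) := fun z => by
    rw [← mul_assoc, t4, neg_mul, mul_assoc]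
  refine ⟨?_, ?_, ?_, ?_⟩
  · simp only [mul_assoc, t2', h.bb2, h.aa, r1, r2, r3, r4, mul_neg, mul_zero, neg_zero]
  · simp only [mul_assoc, t3', h.aa2, h.bb, r1, r2, r3, r4, mul_neg, mul_zero, neg_zero]
  · simp only [mul_assoc, h.aa, h.aa2, h.bb, h.bb2, r1, r2, r3, r4, s1, s2, s1', s2', t1, t2, t3, t4, t1', t2', t3',
      t4', mul_neg, neg_mul, mul_sub, sub_mul, mul_add, add_mul, mul_one, one_mul, mul_zero, zero_mul, neg_neg, neg_zero,
      sub_zero, zero_sub, add_zero, zero_add]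
  · simp only [mul_assoc, h.aa, h.aa2, h.bb, h.bb2, r1, r2, r3, r4, s1, s2, s1', s2', t1, t2, t3, t4, t1', t2', t3',
      t4', mul_neg, neg_mul, mul_sub, sub_mul, mul_add, add_mul, mul_one, one_mul, mul_zero, zero_mul, neg_neg, neg_zero,
      sub_zero, zero_sub, add_zero, zero_add]

/-- The two Weyl elements on two hyperbolic planes. -/
theorem S_sum (h : Cl4 a a' b b') :
    ((a * b') * (b * a') + (b * a') * (a * b')) + ((a' * b') * (b * a) + (b * a) * (a' * b')) = 1 := by
  have r1 : ∀ z : R, a * (a * z) = 0 := fun z => by rw [← mul_assoc, h.aa, zero_mul]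
  have r2 : ∀ z : R, a' * (a' * z) = 0 := fun z => by rw [← mul_assoc, h.aa2, zero_mul]
  have r3 : ∀ z : R, b * (b * z) = 0 := fun z => by rw [← mul_assoc, h.bb, zero_mul]
  have r4 : ∀ z : R, b' * (b' * z) = 0 := fun z => by rw [← mul_assoc, h.bb2, zero_mul]
  have s1 : a' * a = 1 - a * a' := eq_sub_of_add_eq' h.h1
  have s2 : b' * b = 1 - b * b' := eq_sub_of_add_eq' h.h2
  have s1' : ∀ z : R, a' * (a * z) = z - a * (a' * z) := fun z => by
    rw [← mul_assoc, s1, sub_mul, one_mul, mul_assoc]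
  have s2' : ∀ z : R, b' * (b * z) = z - b * (b' * z) := fun z => by
    rw [← mul_assoc, s2, sub_mul, one_mul, mul_assoc]
  have t1 : b * a = - (a * b) := by rw [h.c1, neg_neg]
  have t2 : b' * a = - (a * b') := by rw [h.c2, neg_neg]
  have t3 : b * a' = - (a' * b) := by rw [h.c3, neg_neg]
  have t4 : b' * a' = - (a' * b') := by rw [h.c4, neg_neg]
  have t1' : ∀ z : R, b * (a * z) = - (a * (b * z)) := fun z => by
    rw [← mul_assoc, t1, neg_mul, mul_assoc]
  have t2' : ∀ z : R, b' * (a * z) = - (a * (b' * z)) := fun z => by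
    rw [← mul_assoc, t2, neg_mul, mul_assoc]
  have t3' : ∀ z : R, b * (a' * z) = - (a' * (b * z)) := fun z => by
    rw [← mul_assoc, t3, neg_mul, mul_assoc]
  have t4' : ∀ z : R, b' * (a' * z) = - (a' * (b' * z)) := fun z => by
    rw [← mul_assoc, t4, neg_mul, mul_assoc]
  simp only [mul_assoc, h.aa, h.aa2, h.bb, h.bb2, r1, r2, r3, r4, s1, s2, s1', s2', t1, t2, t3, t4, t1', t2', t3',
    t4', mul_neg, neg_mul, mul_sub, sub_mul, mul_add, add_mul, mul_one, one_mul, mul_zero, zero_mul, neg_neg, neg_zero,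
    sub_zero, zero_sub, add_zero, zero_add]
  abel

end Cl4

/-- Four generators for a commutator of root elements. -/
theorem comm4 {a b c d : R} (ha : a * a = 0) (hb : b * b = 0) (hc : c * c = 0) (hd : d * d = 0)
    (hab : a * b = - (b * a)) (hac : a * c = - (c * a)) (had : a * d = - (d * a))
    (hbd : b * d = - (d * b)) (hcd : c * d = - (d * c)) (hbc : b * c + c * b = 1) :
    (a * b) * (a * b) = 0 ∧ (c * d) * (c * d) = 0 ∧ (a * b) * (c * d) * (a * b) = 0 ∧ (c * d) * (a * b) * (c * d) = 0 ∧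
      (a * b) * (c * d) - (c * d) * (a * b) = a * d := by
  have r1 : ∀ z : R, a * (a * z) = 0 := fun z => by rw [← mul_assoc, ha, zero_mul]
  have r2 : ∀ z : R, b * (b * z) = 0 := fun z => by rw [← mul_assoc, hb, zero_mul]
  have r3 : ∀ z : R, c * (c * z) = 0 := fun z => by rw [← mul_assoc, hc, zero_mul]
  have r4 : ∀ z : R, d * (d * z) = 0 := fun z => by rw [← mul_assoc, hd, zero_mul]
  -- normal order `a < b < c < d`
  have s1 : c * b = 1 - b * c := eq_sub_of_add_eq' hbc
  have s1' : ∀ z : R, c * (b * z) = z - b * (c * z) := fun z => by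
    rw [← mul_assoc, s1, sub_mul, one_mul, mul_assoc]
  have t1 : b * a = - (a * b) := by rw [hab, neg_neg]
  have t2 : c * a = - (a * c) := by rw [hac, neg_neg]
  have t3 : d * a = - (a * d) := by rw [had, neg_neg]
  have t4 : d * b = - (b * d) := by rw [hbd, neg_neg]
  have t5 : d * c = - (c * d) := by rw [hcd, neg_neg]
  have t1' : ∀ z : R, b * (a * z) = - (a * (b * z)) := fun z => by
    rw [← mul_assoc, t1, neg_mul, mul_assoc]
  have t2' : ∀ z : R, c * (a * z) = - (a * (c * z)) := fun z => by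
    rw [← mul_assoc, t2, neg_mul, mul_assoc]
  have t3' : ∀ z : R, d * (a * z) = - (a * (d * z)) := fun z => by
    rw [← mul_assoc, t3, neg_mul, mul_assoc]
  have t4' : ∀ z : R, d * (b * z) = - (b * (d * z)) := fun z => by
    rw [← mul_assoc, t4, neg_mul, mul_assoc]
  have t5' : ∀ z : R, d * (c * z) = - (c * (d * z)) := fun z => by
    rw [← mul_assoc, t5, neg_mul, mul_assoc]
  refine ⟨?_, ?_, ?_, ?_, ?_⟩
  · simp only [mul_assoc, ha, hb, r1, r2, t1, t1', mul_neg, mul_zero, neg_zero]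
  · simp only [mul_assoc, hc, hd, r3, r4, t5, t5', mul_neg, mul_zero, neg_zero]
  · simp only [mul_assoc, ha, hb, hc, hd, r1, r2, r3, r4, s1, s1', t1, t2, t3, t4, t5, t1', t2', t3', t4', t5',
      mul_neg, neg_mul, mul_sub, sub_mul, mul_add, add_mul, mul_one, one_mul, mul_zero, zero_mul, neg_neg, neg_zero,
      sub_zero, zero_sub, add_zero, zero_add, sub_self]
  · simp only [mul_assoc, ha, hb, hc, hd, r1, r2, r3, r4, s1, s1', t1, t2, t3, t4, t5, t1', t2', t3', t4', t5',
      mul_neg, neg_mul, mul_sub, sub_mul, mul_add, add_mul, mul_one, one_mul, mul_zero, zero_mul, neg_neg, neg_zero,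
      sub_zero, zero_sub, add_zero, zero_add, sub_self]
  · simp only [mul_assoc, ha, hb, hc, hd, r1, r2, r3, r4, s1, s1', t1, t2, t3, t4, t5, t1', t2', t3', t4', t5',
      mul_neg, neg_mul, mul_sub, sub_mul, mul_add, add_mul, mul_one, one_mul, mul_zero, zero_mul, neg_neg, neg_zero,
      sub_zero, zero_sub, add_zero, zero_add]
    abel

end Ring

end Cfsg.Agent.Lib.SpinD
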