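import Mathlib
import Cfsg.Agent.Lib.SpinD.Cliff2
import Cfsg.Agent.Lib.Steinberg.Cover

/-!
# The extension of `Ω` inside the Clifford algebra
-/

set_option autoImplicit false
set_option linter.unusedSectionVars false
set_option linter.unusedSimpArgs false

namespace Cfsg.Agent.Lib.SpinD

open Matrix
open Cfsg.Agent.Lib.ChevIso
open scoped commutatorElement

variable {n : ℕ} {F : Type*} [Field F]

local notation "Ipn" => OmegaPlus.Ip n

/-- The root element of the Clifford algebra. -/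
noncomputable def XX (u v : Ipn) : Cl n F := gn u * gn v.swap

theorem swap_ne_of_ne {u v : Ipn} (h : v ≠ u) : v.swap ≠ u.swap := fun h' => h (OmegaPlus.swap_inj h')

theorem XX_sq {u v : Ipn} (h : OmegaPlus.Valid u v) : (XX u v : Cl n F) * XX u v = 0 := by
  have hab : (gn u : Cl n F) * gn v.swap = - (gn v.swap * gn u) := gn_anti (swap_ne_of_ne h.ne1)
  rw [XX]
  calc (gn u : Cl n F) * gn v.swap * (gn u * gn v.swap) = gn u * (gn v.swap * gn u) * gn v.swap := by
        simp only [mul_assoc]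
    _ = - (gn u * (gn u * gn v.swap) * gn v.swap) := by
        rw [← neg_eq_iff_eq_neg.mpr hab]
        simp only [mul_neg, neg_mul, neg_neg]
    _ = 0 := by
        rw [← mul_assoc, gn_sq, zero_mul, zero_mul, neg_zero]

/-- The action of an Eichler transformation. -/
theorem XX_action {u v : Ipn} (h : OmegaPlus.Valid u v) (t : F) (w : Ipn → F) :
    (1 + t • XX u v) * vi w = vi (OmegaPlus.yM u v t *ᵥ w) * (1 + t • (XX u v : Cl n F)) := by
  set a : Cl n F := gn u with ha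
  set b : Cl n F := gn v.swap with hb
  set W : Cl n F := vi w with hW
  have haa : a * a = 0 := gn_sq u
  have hbb : b * b = 0 := gn_sq _
  have hab : a * b = - (b * a) := gn_anti (swap_ne_of_ne h.ne1)
  have h1 : a * W + W * a = (w u.swap) • 1 := by
    have := vi_anti (OmegaPlus.e u : Ipn → F) w
    rw [OmegaPlus.polarF_comm, OmegaPlus.polarF_e] at this
    rw [Algebra.smul_def, mul_one]
    exact this
  have h2 : b * W + W * b = (w v) • 1 := by
    have := vi_anti (OmegaPlus.e v.swap : Ipn → F) w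
    rw [OmegaPlus.polarF_comm, OmegaPlus.polarF_e, Sum.swap_swap] at this
    rw [Algebra.smul_def, mul_one]
    exact this
  have hbW : b * W = (w v) • 1 - W * b := eq_sub_of_add_eq h2
  have haW : a * W = (w u.swap) • 1 - W * a := eq_sub_of_add_eq h1
  have e1 : a * b * W = (w v) • a - (w u.swap) • b + W * (a * b) := by
    rw [mul_assoc, hbW, mul_sub, mul_smul_comm, mul_one, ← mul_assoc a W b, haW, sub_mul, smul_mul_assoc, one_mul,
      mul_assoc]
    abel
  have e2 : a * (a * b) = 0 := by rw [← mul_assoc, haa, zero_mul]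
  have e3 : b * (a * b) = 0 := by
    rw [← mul_assoc, ← neg_eq_iff_eq_neg.mpr hab]
    rw [neg_mul, mul_assoc, hbb, mul_zero, neg_zero]
  have e4 : vi (OmegaPlus.yM u v t *ᵥ w) = W + t • ((w v) • a - (w u.swap) • b) := by
    rw [OmegaPlus.yM_mulVec', vi_add, vi_smul, vi_sub, vi_smul, vi_smul]
    rfl
  rw [e4]
  have e5 : (XX u v : Cl n F) = a * b := rfl
  rw [e5]
  simp only [add_mul, mul_add, one_mul, mul_one, smul_mul_assoc, mul_smul_comm, sub_mul, e1, e2, e3, smul_zero,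
    sub_zero, smul_add, add_zero]
  abel

theorem sq0_mul {R : Type*} [Ring R] [Algebra F R] {X : R} (hX : X * X = 0) (s t : F) :
    (1 + s • X) * (1 + t • X) = 1 + (s + t) • X := by
  rw [add_mul, one_mul, smul_mul_assoc, mul_add, mul_one, mul_smul_comm, hX, smul_zero, add_zero, add_smul]
  abel

/-- The lift of an Eichler transformation as a unit. -/
noncomputable def Lu {u v : Ipn} (h : OmegaPlus.Valid u v) (t : F) : (Cl n F)ˣ where
  val := 1 + t • XX u v
  inv := 1 + (-t) • XX u v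
  val_inv := by
    rw [sq0_mul (XX_sq h), add_neg_cancel, zero_smul, add_zero]
  inv_val := by
    rw [sq0_mul (XX_sq h), neg_add_cancel, zero_smul, add_zero]

theorem Lu_coe {u v : Ipn} (h : OmegaPlus.Valid u v) (t : F) : ((Lu h t : (Cl n F)ˣ) : Cl n F) = 1 + t • XX u v := rfl

theorem Lu_inv_coe {u v : Ipn} (h : OmegaPlus.Valid u v) (t : F) :
    (((Lu h t)⁻¹ : (Cl n F)ˣ) : Cl n F) = 1 + (-t) • XX u v := rfl

/-- Pairs of units and elements of `Ω` acting compatibly on the vectors. -/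
noncomputable def Pre (n : ℕ) (F : Type*) [Field F] : Subgroup ((Cl n F)ˣ × GL (OmegaPlus.Ip n) F) where
  carrier := {x | x.2 ∈ OmegaPlus.Om' n F ∧ ∀ w, (x.1 : Cl n F) * vi w =
    vi ((x.2 : Matrix (OmegaPlus.Ip n) (OmegaPlus.Ip n) F) *ᵥ w) * (x.1 : Cl n F)}
  mul_mem' := by
    rintro ⟨u, g⟩ ⟨u', g'⟩ ⟨h1, h2⟩ ⟨h1', h2'⟩
    refine ⟨mul_mem h1 h1', fun w => ?_⟩
    show ((u * u' : (Cl n F)ˣ) : Cl n F) * vi w =
      vi (((g * g' : GL (OmegaPlus.Ip n) F) : Matrix (OmegaPlus.Ip n) (OmegaPlus.Ip n) F) *ᵥ w) * ((u * u' : (Cl n F)ˣ) : Cl n F)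
    rw [Units.val_mul, Units.val_mul, mul_assoc, h2', ← mul_assoc, h2, mulVec_mulVec, mul_assoc]
  one_mem' := ⟨one_mem _, fun w => by simp⟩
  inv_mem' := by
    rintro ⟨u, g⟩ ⟨h1, h2⟩
    refine ⟨inv_mem h1, fun w => ?_⟩
    show ((u⁻¹ : (Cl n F)ˣ) : Cl n F) * vi w =
      vi (((g⁻¹ : GL (OmegaPlus.Ip n) F) : Matrix (OmegaPlus.Ip n) (OmegaPlus.Ip n) F) *ᵥ w) * ((u⁻¹ : (Cl n F)ˣ) : Cl n F)
    have h3 := h2 (((g⁻¹ : GL (OmegaPlus.Ip n) F) : Matrix (OmegaPlus.Ip n) (OmegaPlus.Ip n) F) *ᵥ w)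
    rw [mulVec_mulVec, ← Units.val_mul, mul_inv_cancel, Units.val_one, one_mulVec] at h3
    calc ((u⁻¹ : (Cl n F)ˣ) : Cl n F) * vi w =
          ((u⁻¹ : (Cl n F)ˣ) : Cl n F) * (vi w * (u : Cl n F)) * ((u⁻¹ : (Cl n F)ˣ) : Cl n F) := by
          simp [mul_assoc]
      _ = ((u⁻¹ : (Cl n F)ˣ) : Cl n F) * ((u : Cl n F) * vi (((g⁻¹ : GL (OmegaPlus.Ip n) F) : Matrix (OmegaPlus.Ip n) (OmegaPlus.Ip n) F) *ᵥ w)) *
            ((u⁻¹ : (Cl n F)ˣ) : Cl n F) := by rw [h3]
      _ = _ := by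
          rw [← mul_assoc, Units.inv_mul, one_mul]

/-- The lift of an Eichler transformation. -/
noncomputable def Lp {u v : Ipn} (h : OmegaPlus.Valid u v) (t : F) : Pre n F :=
  ⟨(Lu h t, OmegaPlus.Y h t), OmegaPlus.Y_mem h t, XX_action h t⟩

/-- The map to `Ω`. -/
noncomputable def fPre (n : ℕ) (F : Type*) [Field F] : Pre n F →* OmegaPlus.Om' n F :=
  ((MonoidHom.snd _ _).comp (Pre n F).subtype).codRestrict _ (fun x => x.2.1)

theorem fPre_surj : Function.Surjective (fPre n F) := by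
  rintro ⟨g, hg⟩
  have : ∃ x : Pre n F, x.1.2 = g := by
    refine Subgroup.closure_induction (p := fun g _ => ∃ x : Pre n F, x.1.2 = g) ?_ ?_ ?_ ?_ hg
    · rintro _ ⟨u, v, h, t, rfl⟩
      exact ⟨Lp h t, rfl⟩
    · exact ⟨1, rfl⟩
    · rintro a b _ _ ⟨x, rfl⟩ ⟨y, rfl⟩
      exact ⟨x * y, rfl⟩
    · rintro a _ ⟨x, rfl⟩
      exact ⟨x⁻¹, rfl⟩
  obtain ⟨x, hx⟩ := this
  exact ⟨x, Subtype.ext hx⟩

theorem fPre_ker : (fPre n F).ker ≤ Subgroup.center (Pre n F) := by
  rintro x hx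
  have h1 : x.1.2 = 1 := congrArg Subtype.val (MonoidHom.mem_ker.mp hx)
  have h2 : ∀ w, ((x.1.1 : (Cl n F)ˣ) : Cl n F) * vi w = vi w * ((x.1.1 : (Cl n F)ˣ) : Cl n F) := by
    intro w
    have := x.2.2 w
    rw [h1] at this
    simpa using this
  have h3 : ∀ y : Cl n F, ((x.1.1 : (Cl n F)ˣ) : Cl n F) * y = y * ((x.1.1 : (Cl n F)ˣ) : Cl n F) := by
    intro y
    induction y using CliffordAlgebra.induction with
    | algebraMap r => exact (Algebra.commutes _ _).symm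
    | ι w => exact h2 w
    | mul a b ha hb => rw [← mul_assoc, ha, mul_assoc, hb, mul_assoc]
    | add a b ha hb => rw [mul_add, add_mul, ha, hb]
  rw [Subgroup.mem_center_iff]
  intro y
  apply Subtype.ext
  apply Prod.ext
  · apply Units.ext
    exact (h3 _).symm
  · show y.1.2 * x.1.2 = x.1.2 * y.1.2
    rw [h1, mul_one, one_mul]

/-- The commutator relation. -/
theorem Lp_comm {u v w : Ipn} (h1 : OmegaPlus.Valid u w) (h2 : OmegaPlus.Valid w v) (h3 : OmegaPlus.Valid u v) (a b : F) :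
    ⁅Lp h1 a, Lp h2 b⁆ = Lp h3 (a * b) := by
  apply Subtype.ext
  apply Prod.ext
  · apply Units.ext
    have k := comm4 (a := (gn u : Cl n F)) (b := gn w.swap) (c := gn w) (d := gn v.swap) (gn_sq _) (gn_sq _) (gn_sq _) (gn_sq _)
      (gn_anti (swap_ne_of_ne h1.ne1)) (gn_anti h1.ne2) (gn_anti (swap_ne_of_ne h3.ne1))
      (gn_anti (by rw [Sum.swap_swap]; exact fun h' => h2.ne2 (by rw [← h', Sum.swap_swap])))
      (gn_anti (swap_ne_of_ne h2.ne1))
      (by
        have := gn_swap (F := F) w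
        rw [add_comm]
        exact this)
    obtain ⟨k1, k2, k3, k4, k5⟩ := k
    have e := comm_id a b k1 k2 k3 k4
    rw [k5] at e
    exact e
  · exact OmegaPlus.comm_Y h1 h2 h3 a b

/-- `Ω` is perfect. -/
theorem Om_perfect (hn : 3 ≤ n) : commutator (OmegaPlus.Om' n F) = ⊤ := by
  rw [eq_top_iff]
  rintro ⟨g, hg⟩ _
  refine Subgroup.closure_induction (p := fun g hg => (⟨g, hg⟩ : OmegaPlus.Om' n F) ∈ commutator (OmegaPlus.Om' n F)) ?_ ?_ ?_ ?_ hg
  · rintro _ ⟨u, v, h, t, rfl⟩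
    obtain ⟨w, h1, h2, he⟩ := OmegaPlus.exists_comm hn h t
    have : (⟨OmegaPlus.Y h t, Subgroup.subset_closure ⟨u, v, h, t, rfl⟩⟩ : OmegaPlus.Om' n F) =
        ⁅(⟨OmegaPlus.Y h1 t, OmegaPlus.Y_mem h1 t⟩ : OmegaPlus.Om' n F), ⟨OmegaPlus.Y h2 1, OmegaPlus.Y_mem h2 1⟩⁆ :=
      Subtype.ext he.symm
    rw [this]
    exact Subgroup.commutator_mem_commutator (Subgroup.mem_top _) (Subgroup.mem_top _)
  · exact one_mem _
  · intro a b ha hb h1 h2
    exact mul_mem h1 h2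
  · intro a ha h1
    exact inv_mem h1

/-- The spin group. -/
noncomputable abbrev Sp (n : ℕ) (F : Type*) [Field F] : Subgroup (Pre n F) := commutator (Pre n F)

/-- The map from the spin group to `Ω`. -/
noncomputable def tSp (n : ℕ) (F : Type*) [Field F] : Sp n F →* OmegaPlus.Om' n F := (fPre n F).comp (Sp n F).subtype

theorem tSp_stem (hn : 3 ≤ n) : Cfsg.IsStemExtension (tSp n F) :=
  Cfsg.Agent.Lib.Steinberg.Cover.comm_stem _ fPre_surj fPre_ker (Om_perfect hn)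

theorem Lp_mem (hn : 3 ≤ n) {u v : Ipn} (h : OmegaPlus.Valid u v) (t : F) : Lp h t ∈ Sp n F := by
  obtain ⟨w, h1, h2, -⟩ := OmegaPlus.exists_comm hn h t
  have e := Lp_comm h1 h2 h t 1
  rw [mul_one] at e
  rw [← e]
  exact Subgroup.commutator_mem_commutator (Subgroup.mem_top _) (Subgroup.mem_top _)

/-- The lift of an Eichler transformation to the spin group. -/
noncomputable def Le (hn : 3 ≤ n) {u v : Ipn} (h : OmegaPlus.Valid u v) (t : F) : Sp n F := ⟨Lp h t, Lp_mem hn h t⟩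

theorem Le_comm (hn : 3 ≤ n) {u v w : Ipn} (h1 : OmegaPlus.Valid u w) (h2 : OmegaPlus.Valid w v) (h3 : OmegaPlus.Valid u v)
    (a b : F) : ⁅Le hn h1 a, Le hn h2 b⁆ = Le hn h3 (a * b) :=
  Subtype.ext (Lp_comm h1 h2 h3 a b)

section Finite

variable [Fintype F]

theorem finite_Sp (h2 : (2 : F) ≠ 0) : Finite (Sp n F) := by
  haveI := finite_cl (n := n) h2
  infer_instance

end Finite

end Cfsg.Agent.Lib.SpinD
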